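import Cfsg.Agent.StA.C

/-! Permutations commuting with an involution: three-cycles of blocks. -/

set_option autoImplicit false
set_option linter.unusedSectionVars false

namespace CF.Ub.Jb

open Equiv Equiv.Perm CF.StA CF.Known.Pres

variable {Ω : Type*} [Fintype Ω] [DecidableEq Ω] {τ x y θ γ : Perm Ω} {a b c p : Ω}

/-- a three-cycle of blocks -/
structure B3 (τ θ : Perm Ω) (a b c : Ω) : Prop where
  cube : θ ^ 3 = 1
  cm : Commute θ τ
  ab : θ a = b
  bc : θ b = c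
  ca : θ c = a
  out : ∀ v, v ≠ a → v ≠ τ a → v ≠ b → v ≠ τ b → v ≠ c → v ≠ τ c → θ v = v

theorem exB3 (tt : τ * τ = 1) (n1 : D4 a (τ a) b (τ b)) (n2 : D4 a (τ a) c (τ c)) (n3 : D4 b (τ b) c (τ c)) :
    ∃ θ, B3 τ θ a b c := by
  have i := ap2 tt
  obtain ⟨_, _, _, _, _, _⟩ := n1
  obtain ⟨_, _, _, _, _, _⟩ := n2
  obtain ⟨_, _, _, _, _, _⟩ := n3
  let θ := c3 a b c * c3 (τ a) (τ b) (τ c)
  have e1 : θ a = b := by simp only [θ, c3, mul_apply, swap_apply_def]; grind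
  have e2 : θ b = c := by simp only [θ, c3, mul_apply, swap_apply_def]; grind
  have e3 : θ c = a := by simp only [θ, c3, mul_apply, swap_apply_def]; grind
  have e4 : θ (τ a) = τ b := by simp only [θ, c3, mul_apply, swap_apply_def]; grind
  have e5 : θ (τ b) = τ c := by simp only [θ, c3, mul_apply, swap_apply_def]; grind
  have e6 : θ (τ c) = τ a := by simp only [θ, c3, mul_apply, swap_apply_def]; grind
  have e7 : ∀ v, v ≠ a → v ≠ τ a → v ≠ b → v ≠ τ b → v ≠ c → v ≠ τ c → θ v = v := fun v _ _ _ _ _ _ => by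
    simp only [θ, c3, mul_apply, swap_apply_def]; grind
  clear_value θ
  have cs : ∀ v, v = a ∨ v = τ a ∨ v = b ∨ v = τ b ∨ v = c ∨ v = τ c ∨ θ v = v ∧ θ (τ v) = τ v := fun v => by
    by_contra! q
    obtain ⟨q1, q2, q3, q4, q5, q6, q7⟩ := q
    have s : ∀ {u}, v ≠ τ u → τ v ≠ u := fun k l => k (by rw [← l, i])
    exact q7 (e7 v q1 q2 q3 q4 q5 q6) (e7 _ (s q2) (τ.injective.ne q1) (s q4) (τ.injective.ne q3) (s q6) (τ.injective.ne q5))
  refine ⟨θ, Equiv.ext fun v => ?_, Equiv.ext fun v => ?_, e1, e2, e3, e7⟩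
  · rcases cs v with q | q | q | q | q | q | q <;> simp only [pow_three, mul_apply, one_apply, q, e1, e2, e3, e4, e5, e6]
  · rcases cs v with q | q | q | q | q | q | q <;> simp only [mul_apply, q, i, e1, e2, e3, e4, e5, e6]

theorem blk (tt : τ * τ = 1) (k : 10 ≤ τ.support.card) (cx : Commute x τ) (xx : x * x = 1)
    (h : ∀ θ, θ ^ 3 = 1 → Commute θ τ → ∀ p, τ p ≠ p → (x * (θ * x * θ⁻¹) * (x * (θ * x * θ⁻¹))) p = p)
    (ha : τ a ≠ a) : x a = a ∨ x a = τ a := by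
  by_contra q
  push Not at q
  obtain ⟨r, hr, m⟩ := pick (S := τ.support) [a, τ a, x a, τ (x a)] (by simp only [List.length]; omega)
  obtain ⟨s, hs, m'⟩ := pick (S := τ.support) [a, τ a, x a, τ (x a), r, τ r, x r, τ (x r)] (by simp only [List.length]; omega)
  simp only [List.mem_cons, List.not_mem_nil, or_false, not_or, mem_support] at m m' hr hs
  obtain ⟨θ, B⟩ := exB3 tt (.of_inv tt ha hr m.1 m.2.1) (.of_inv tt ha hs m'.1 m'.2.1)
    (.of_inv tt hr hs m'.2.2.2.2.1 m'.2.2.2.2.2.1)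
  have i := ap2 tt; have j := ap2 xx; have u := apc cx
  have e := h θ B.cube B.cm r hr
  have f1 : θ⁻¹ r = a := by rw [← B.ab, iap]
  have f2 : θ⁻¹ a = s := by rw [← B.ca, iap]
  have f3 : θ (x a) = x a := B.out _ q.1 q.2 (Ne.symm m.2.2.1) (by have := i r; grind) (Ne.symm m'.2.2.1)
    (by have := i s; grind)
  simp only [mul_apply, f1, f3, j, f2] at e
  by_cases k1 : x s = s
  · rw [k1, B.ca] at e; exact m.2.2.1 e.symm
  by_cases k2 : x s = τ s
  · rw [k2, apc B.cm, B.ca, u] at e; exact m.2.2.2 e.symm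
  have t : ∀ {v}, s ≠ x v → x s ≠ v := fun k l => k (by rw [← l, j])
  rw [B.out _ (t m'.2.2.1) (t (u a ▸ m'.2.2.2.1)) (t m'.2.2.2.2.2.2.1) (t (u r ▸ m'.2.2.2.2.2.2.2)) k1 k2, j] at e
  exact m'.2.2.2.2.1 e

theorem fx (o : Odd (Fintype.card Ω)) (tt : τ * τ = 1) (yy : y * y = 1) (s4 : 4 ∣ y.support.card) (f : ∀ p, τ p ≠ p → y p = p)
    (h : τ.support.card + 3 ≠ Fintype.card Ω → ∀ θ, θ ^ 3 = 1 → Commute θ τ → y * (θ * y * θ⁻¹) * (y * (θ * y * θ⁻¹)) = 1) :
    y = 1 := by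
  by_contra y1
  obtain ⟨a, ha⟩ := exm y1
  have l : y.support ⊆ τ.supportᶜ := fun p hp => by
    rw [Finset.mem_compl, mem_support]; exact fun k => mem_support.1 hp (f p k)
  have c1 := Finset.card_le_card l
  have c2 := Finset.card_compl_add_card τ.support
  have c3' : 0 < y.support.card := Finset.card_pos.2 ⟨a, mem_support.2 ha⟩
  have c4 := two_dvd_card_support (σ := τ) (by rwa [sq])
  obtain ⟨w, hw⟩ := o
  obtain ⟨r, hr, m⟩ := pick (S := τ.supportᶜ) [a, y a] (by simp only [List.length]; omega)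
  obtain ⟨s, hs, m'⟩ := pick (S := τ.supportᶜ) [a, y a, r, y r] (by simp only [List.length]; omega)
  have ta : τ a = a := by simpa using l (mem_support.2 ha)
  simp only [List.mem_cons, List.not_mem_nil, or_false, not_or, Finset.mem_compl, notMem_support] at m m' hr hs
  have k := Equiv.congr_fun (h (by omega) (c3 a r s) (c3_cube (Ne.symm m.1) m'.1 m'.2.2.1) (Equiv.ext fun v => by
    have := ap2 tt v
    simp only [c3, mul_apply, swap_apply_def]; grind)) r
  have := ap2 yy a; have := ap2 yy r; have := ap2 yy s; have := ap2 yy (y s)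
  simp only [c3, mul_apply, _root_.mul_inv_rev, swap_inv, swap_apply_def, one_apply] at k
  grind

theorem cj (c' : Commute γ τ) (e1 : γ a = b) (e2 : γ b = c) :
    dt a (τ a) b (τ b) * (γ * dt a (τ a) b (τ b) * γ⁻¹) = dt a (τ a) c (τ c) := by
  have : γ * dt a (τ a) b (τ b) * γ⁻¹ = dt b (τ b) c (τ c) := by
    have := swap_apply_apply γ a (τ a); have k := swap_apply_apply γ b (τ b)
    rw [apc c', e1] at this; rw [apc c', e2] at k
    rw [dt, dt, k]; nth_rw 2 [this]; group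
  rw [this, dt, dt, mul_assoc, swap_mul_self_mul]

theorem mv (tt : τ * τ = 1) (c' : Commute γ τ) {m : ℕ} (o : Odd m) (e : γ ^ m = 1) (ha : τ a ≠ a) (k : γ a ≠ a) :
    D4 a (τ a) (γ a) (τ (γ a)) ∧ D4 a (τ a) (γ (γ a)) (τ (γ (γ a))) := by
  have i := ap2 tt; have u := apc c'
  have f1 := mt (fix_odd (a := a) o e) k
  have f2 := mt (fix_odd (σ := γ * γ) (a := a) o (by rw [← pow_two, ← pow_mul, mul_comm, pow_mul, e, one_pow])) f1
  simp only [mul_apply] at f2
  have g1 : τ (γ a) ≠ γ a := fun q => ha (γ.injective (by rw [u, q]))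
  have g2 : τ (γ (γ a)) ≠ γ (γ a) := fun q => g1 (γ.injective (by rw [u, q]))
  exact ⟨.of_inv tt ha g1 k fun q => f1 (by rw [q, u, q, i]), .of_inv tt ha g2 f1 fun q => f2 (by rw [q, u, u, q, i])⟩

theorem v2 (tt : τ * τ = 1) (n1 : D4 a (τ a) b (τ b)) (n2 : D4 a (τ a) c (τ c)) (n3 : D4 b (τ b) c (τ c)) (B : B3 τ θ a b c)
    (xx : x * x = 1) (cx : Commute x τ) (bx : ∀ p, τ p ≠ p → x p = p ∨ x p = τ p) :
    x * (θ * x * θ⁻¹) = 1 ∨ ∃ u v, D4 u (τ u) v (τ v) ∧ x * (θ * x * θ⁻¹) = dt u (τ u) v (τ v) := by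
  have i := ap2 tt; have j := ap2 xx; have u := apc cx; have w := apc B.cm
  have o : ∀ v, v ≠ a → v ≠ τ a → v ≠ b → v ≠ τ b → v ≠ c → v ≠ τ c → x (θ (x v)) = v := fun v _ _ _ _ _ _ => by
    have := bx v; have := bx a; have := bx b; have := bx c; have := i v; have := j v; have := i a; have := i b; have := i c
    have := u v; have := n1.ab; have := n1.cd; have := n2.cd
    rw [B.out (x v), j] <;> grind
  have K : ∀ z : Perm Ω, (∀ v, v ≠ a → v ≠ τ a → v ≠ b → v ≠ τ b → v ≠ c → v ≠ τ c → z v = v) → Commute z τ →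
      x (θ (x a)) = z b → x (θ (x b)) = z c → x (θ (x c)) = z a → x * (θ * x * θ⁻¹) = z := fun z h1 h2 h3 h4 h5 =>
    Equiv.ext fun v => by
      obtain ⟨v, rfl⟩ := θ.surjective v
      have q := apc h2
      simp only [mul_apply, iap]
      have := B.ab; have := B.bc; have := B.ca
      by_cases k1 : v = a; · grind
      by_cases k2 : v = τ a; · rw [k2, u, w, u, h3, w, q, B.ab]
      by_cases k3 : v = b; · grind
      by_cases k4 : v = τ b; · rw [k4, u, w, u, h4, w, q, B.bc]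
      by_cases k5 : v = c; · grind
      by_cases k6 : v = τ c; · rw [k6, u, w, u, h5, w, q, B.ca]
      rw [o v k1 k2 k3 k4 k5 k6, B.out v k1 k2 k3 k4 k5 k6, h1 v k1 k2 k3 k4 k5 k6]
  have cd : ∀ u v, Commute (dt u (τ u) v (τ v)) τ := fun u v => Equiv.ext fun z => by
    have := i u; have := i v; have := i z
    simp only [mul_apply, swap_apply_def]; grind
  have od : ∀ {u v z}, z ≠ u → z ≠ τ u → z ≠ v → z ≠ τ v → dt u (τ u) v (τ v) z = z := fun h1 h2 h3 h4 => by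
    rw [mul_apply, swap_apply_of_ne_of_ne h3 h4, swap_apply_of_ne_of_ne h1 h2]
  have P1 := K _ (fun v h1 h2 h3 h4 _ _ => od h1 h2 h3 h4) (cd a b)
  have P2 := K _ (fun v h1 h2 _ _ h3 h4 => od h1 h2 h3 h4) (cd a c)
  have P3 := K _ (fun v _ _ h1 h2 h3 h4 => od h1 h2 h3 h4) (cd b c)
  have P0 := K 1 (fun _ _ _ _ _ _ _ => rfl) (Commute.one_left _)
  rw [n1.ap3, n1.ap1, od n2.ac.symm n2.bc.symm n3.ac.symm n3.bc.symm] at P1
  rw [n2.ap3, n2.ap1, od n1.ac.symm n1.bc.symm n3.ac n3.ad] at P2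
  rw [n3.ap3, n3.ap1, od n1.ac n1.ad n2.ac n2.ad] at P3
  simp only [one_apply] at P0
  rcases bx a n1.ab.symm with ea | ea <;> rcases bx b n1.cd.symm with eb | eb <;> rcases bx c n2.cd.symm with ec | ec <;>
    simp only [ea, eb, ec, u, w, i, B.ab, B.bc, B.ca, forall_const] at P0 P1 P2 P3
  all_goals first | exact .inl P0 | exact .inr ⟨_, _, n1, P1⟩ | exact .inr ⟨_, _, n2, P2⟩ | exact .inr ⟨_, _, n3, P3⟩

end CF.Ub.Jb
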