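import Cfsg.Agent.BG.B1

/-! A matrix model for automorphisms of an elementary abelian group of order `256`. -/

set_option autoImplicit false
set_option linter.unusedSectionVars false

namespace CF.Ub.Mo

open Subgroup CF.BG
open scoped commutatorElement

/-- the linear map with the given images of `1, 2, 4, ...` -/
noncomputable def app (M : List ℕ) : ℕ → ℕ :=
  List.rec (fun _ => 0) (fun m _ ih z => Nat.xor (Nat.mul (Nat.mod z 2) m) (ih (Nat.div z 2))) M
noncomputable def mul (A B : List ℕ) : List ℕ := List.rec [] (fun b _ ih => app A b :: ih) B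
def I8 : List ℕ := [1, 2, 4, 8, 16, 32, 64, 128]
def T8 : List ℕ := [16, 32, 64, 128, 1, 2, 4, 8]
noncomputable def pw (A : List ℕ) (k : ℕ) : List ℕ := Nat.rec I8 (fun _ ih => mul ih A) k
noncomputable def isId (A : List ℕ) : Bool := mul A I8 == I8
/-- `M` maps the subspace of the mask `μ` into the subspace of the mask `ν` -/
noncomputable def mp (M : List ℕ) (μ ν : ℕ) : Bool :=
  (List.range 256).all fun z => !(Nat.land z μ == 0) || Nat.land (app M z) ν == 0
def inS (w : ℕ) : Bool := Nat.land w 252 == 0 || Nat.land w 243 == 0 || Nat.land w 207 == 0 || Nat.land w 63 == 0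
noncomputable def okq (Y : List ℕ) : Bool := inS (app Y 1) && inS (app Y 2) && inS (app Y 4) && inS (app Y 8)
noncomputable def bad (Y : List ℕ) : Bool := mul Y T8 == mul T8 Y && !okq Y
def ex (a : ℕ) : ℕ := Nat.add (Nat.mod a 4) (Nat.mul (Nat.div a 4) 16)
def emb (a b c d : ℕ) : List ℕ := [ex a, ex b, 4, 8, ex c, ex d, 64, 128]
def N0 : List ℕ := [4, 8, 1, 2, 16, 32, 64, 128]
def N1 : List ℕ := [81, 162, 84, 168, 69, 138, 21, 42]
def X0 : List ℕ := [1, 3, 4, 8, 16, 48, 64, 128]

noncomputable def w1 (N M : List ℕ) : List ℕ :=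
  mul (mul N (mul M N)) (pw (mul (mul T8 (mul N (mul (mul T8 (mul M T8)) N))) (mul T8 (mul N (mul M N)))) 7)
noncomputable def w2 (N M : List ℕ) : List ℕ :=
  mul (mul T8 (mul (pw M 3) (mul N (pw M 3)))) (mul T8 (mul M (mul N M)))

noncomputable def ck1 (M : List ℕ) : Bool := !(mul M (mul T8 M) == mul T8 I8) || isId (pw (pw (pw M 3) 5) 4) &&
  (!isId (pw (pw M 3) 5) || (bad (w1 N0 M) || mp M 252 252 && mp M 207 207) && (bad (w1 N1 M) || isId M))
noncomputable def ck2 (M : List ℕ) : Bool := !(mul M T8 == mul T8 (mul X0 M)) || !(mul M X0 == mul X0 M) ||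
  !((List.range 256).all fun z => z == 0 || !(app M z == 0)) || mp M 252 252 && mp M 207 207 ||
  mp M 252 207 && mp M 207 252 || bad (w2 N0 M) && bad (w2 N1 M)
noncomputable def all4 (p : ℕ → ℕ → ℕ → ℕ → Bool) : Bool :=
  (List.range 16).all fun a => (List.range 16).all fun b => (List.range 16).all fun c => (List.range 16).all fun d =>
    p a b c d

theorem chk1 : all4 (fun a b c d => !(app (emb a b c d) (app T8 (ex a)) == 16) || ck1 (emb a b c d)) = true := by
  decide +kernel
theorem chk2 : all4 (fun a c b d => !(ex c == app T8 (app X0 (ex a))) || ck2 (emb a b c d)) = true := by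
  decide +kernel

end CF.Ub.Mo
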