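import Cfsg.Agent.Ub.Mo0

/-! The matrix model: coordinates and actions. -/

set_option autoImplicit false
set_option linter.unusedSectionVars false

namespace CF.Ub.Mo

open Subgroup CF.BG
open scoped commutatorElement

variable {A B M M' N Y : List ℕ} {a b c d z w μ ν k : ℕ}

theorem app_cons (m : ℕ) (M : List ℕ) (z : ℕ) : app (m :: M) z = (z % 2 * m) ^^^ app M (z / 2) := rfl
theorem mul_cons (A : List ℕ) (b : ℕ) (B : List ℕ) : mul A (b :: B) = app A b :: mul A B := rfl
theorem pw_succ (A : List ℕ) (k : ℕ) : pw A (k + 1) = mul (pw A k) A := rfl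

theorem app_zero (M : List ℕ) : app M 0 = 0 := by
  induction M with
  | nil => rfl
  | cons m M ih => rw [app_cons]; simp [ih]

theorem app_xor (M : List ℕ) (a b : ℕ) : app M (a ^^^ b) = app M a ^^^ app M b := by
  induction M generalizing a b with
  | nil => exact (Nat.xor_self 0).symm
  | cons m M ih =>
    have e : (a ^^^ b) % 2 = a % 2 ^^^ b % 2 := Nat.xor_mod_two_pow (n := 1)
    rw [app_cons, app_cons, app_cons, Nat.xor_div_two, ih, e]
    generalize app M (a / 2) = p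
    generalize app M (b / 2) = q
    rcases Nat.mod_two_eq_zero_or_one a with h | h <;> rcases Nat.mod_two_eq_zero_or_one b with h' | h' <;>
      rw [h, h']
    · simp
    · simp [Nat.xor_left_comm]
    · simp [Nat.xor_assoc]
    · simp [Nat.xor_assoc, Nat.xor_left_comm p m]

theorem app_mul (A B : List ℕ) (z : ℕ) : app (mul A B) z = app A (app B z) := by
  induction B generalizing z with
  | nil => exact (app_zero A).symm
  | cons b B ih =>
    rw [mul_cons, app_cons, app_cons, ih, app_xor]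
    rcases Nat.mod_two_eq_zero_or_one z with h | h <;> simp [h, app_zero]

theorem app_lt (h : ∀ m ∈ M, m < 256) (z : ℕ) : app M z < 256 := by
  induction M generalizing z with
  | nil => exact (by decide : 0 < 256)
  | cons m M ih =>
    rw [app_cons]
    refine Nat.xor_lt_two_pow (n := 8) ?_ (ih (fun x hx => h x (List.mem_cons_of_mem _ hx)) _)
    have := h m List.mem_cons_self
    rcases Nat.mod_two_eq_zero_or_one z with e | e <;> rw [e] <;> omega

theorem app_I : ∀ z < 256, app I8 z = z := by decide +kernel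
theorem lt_I : ∀ m ∈ I8, m < 256 := by decide
theorem lt_T : ∀ m ∈ T8, m < 256 := by decide

theorem mul_congr {L : List ℕ} (h : ∀ m ∈ L, app A m = app B m) : mul A L = mul B L := by
  induction L with
  | nil => rfl
  | cons m L ih => rw [mul_cons, mul_cons, h m List.mem_cons_self, ih fun x hx => h x (List.mem_cons_of_mem _ hx)]

theorem mul_assoc' (A B L : List ℕ) : mul (mul A B) L = mul A (mul B L) := by
  induction L with
  | nil => rfl
  | cons m L ih => rw [mul_cons, mul_cons, mul_cons, app_mul, ih]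

theorem isId_iff : isId A = true ↔ ∀ z < 256, app A z = z := by
  rw [isId, beq_iff_eq]
  refine ⟨fun h z hz => ?_, fun h => ?_⟩
  · rw [← app_I z hz, ← app_mul, h, app_I z hz]
  · rw [mul_congr (B := I8) fun m hm => (h m (lt_I m hm)).trans (app_I m (lt_I m hm)).symm]; decide +kernel

theorem len_mul (A B : List ℕ) : (mul A B).length = B.length := by
  induction B with
  | nil => rfl
  | cons m L ih => rw [mul_cons, List.length_cons, ih, List.length_cons]

theorem mul_I (h : M.length = 8) : mul M I8 = M := by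
  have n : ∀ z, app [] z = 0 := fun _ => rfl
  have n' : mul M [] = [] := rfl
  match M, h, n' with
  | [a, b, c, d, e, f, g, h], _, n' => simp [I8, mul_cons, app_cons, n, n']

theorem app_emb1 : app (emb a b c d) 1 = ex a := by simp [emb, app_cons, app_zero]
theorem app_emb16 : app (emb a b c d) 16 = ex c := by simp [emb, app_cons, app_zero]

theorem ex_lt (h : a < 16) : ex a < 256 := by revert a; decide
theorem ex_of : ∀ z < 256, z &&& 204 = 0 → ∃ a < 16, ex a = z := by decide +kernel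

theorem all4_iff {p : ℕ → ℕ → ℕ → ℕ → Bool} (h : all4 p = true) (ha : a < 16) (hb : b < 16) (hc : c < 16)
    (hd : d < 16) : p a b c d = true := by
  simp only [all4, List.all_eq_true, List.mem_range] at h
  exact h a ha b hb c hc d hd

universe u
variable {X : Type u} [Group X] [Finite X] {W : Subgroup X} {co : ℕ → X} {g g' n r t x y : X}

/-- coordinates on `W` -/
structure Co (W : Subgroup X) (co : ℕ → X) : Prop where
  xor : ∀ a b, co (a ^^^ b) = co a * co b
  inj : ∀ a < 256, co a = 1 → a = 0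
  mem : ∀ a, co a ∈ W
  sur : ∀ w ∈ W, ∃ a < 256, co a = w

/-- `g` acts by the matrix `M` -/
def Act (co : ℕ → X) (g : X) (M : List ℕ) : Prop :=
  (∀ z, app M z < 256) ∧ ∀ z < 256, g * co z * g⁻¹ = co (app M z)

theorem Act.mul (h : Act co g M) (h' : Act co g' M') : Act co (g * g') (mul M M') :=
  ⟨fun z => by rw [app_mul]; exact h.1 _, fun z hz => by
    rw [app_mul, ← h.2 _ (h'.1 z), ← h'.2 z hz]; group⟩

theorem act_one : Act co 1 I8 := ⟨app_lt lt_I, fun z hz => by rw [app_I z hz]; group⟩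

theorem Act.pw (h : Act co g M) (k : ℕ) : Act co (g ^ k) (pw M k) := by
  induction k with
  | zero => rw [pow_zero]; exact act_one
  | succ k ih => rw [pow_succ]; exact ih.mul h

namespace Co
variable (C : Co W co)
include C

theorem zero : co 0 = 1 := by
  have := C.xor 0 0
  rw [Nat.xor_self] at this
  exact left_eq_mul.1 this

theorem sq (a : ℕ) : co a * co a = 1 := by rw [← C.xor, Nat.xor_self, C.zero]

theorem eq (ha : a < 256) (hb : b < 256) (e : co a = co b) : a = b :=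
  Nat.xor_eq_zero_iff.1 (C.inj _ (Nat.xor_lt_two_pow (n := 8) ha hb) (by rw [C.xor, e, C.sq]))

theorem hom {L : List ℕ} (h : List.Forall₂ (fun l m => g * co l * g⁻¹ = co m) L M) (z : ℕ) :
    g * co (app L z) * g⁻¹ = co (app M z) := by
  induction h generalizing z with
  | nil => show g * co 0 * g⁻¹ = co 0; rw [C.zero]; group
  | cons e _ ih =>
    rw [app_cons, app_cons, C.xor, C.xor, ← ih]
    rcases Nat.mod_two_eq_zero_or_one z with k | k
    · simp [k, C.zero]
    · rw [k, one_mul, one_mul, ← e]; group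

/-- the action is determined by the images of the basis -/
theorem act_of (lt : ∀ m ∈ M, m < 256) (h : List.Forall₂ (fun l m => g * co l * g⁻¹ = co m) I8 M) : Act co g M :=
  ⟨app_lt lt, fun z hz => by rw [← C.hom h, app_I z hz]⟩

theorem uq (h : Act co g A) (h' : Act co g B) (hz : z < 256) : app A z = app B z :=
  C.eq (h.1 z) (h'.1 z) ((h.2 z hz).symm.trans (h'.2 z hz))

theorem cent (h : Act co g A) : g ∈ 𝐂 W ↔ isId A = true := by
  rw [isId_iff, mem_cent]
  refine ⟨fun k z hz => C.eq (h.1 z) hz ?_, fun k w hw => ?_⟩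
  · rw [← h.2 z hz, ← k _ (C.mem z)]; group
  · obtain ⟨z, hz, rfl⟩ := C.sur w hw
    have := h.2 z hz
    rw [k z hz] at this
    exact (mul_inv_eq_iff_eq_mul.1 this).symm

theorem congr (h : Act co g A) (e : x * g⁻¹ ∈ 𝐂 W) : Act co x A := ⟨h.1, fun z hz => by
  have := mem_cent.1 e _ (C.mem (app A z))
  rw [← h.2 z hz] at this ⊢
  calc x * co z * x⁻¹ = (x * g⁻¹ * (g * co z * g⁻¹)) * g * x⁻¹ := by group
    _ = _ := by rw [← this]; group⟩

theorem same (h : Act co g A) (h' : Act co x A) : x * g⁻¹ ∈ 𝐂 W := by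
  have nW : ∀ z < 256, ∃ w < 256, g * co w * g⁻¹ = co z := fun z hz => by
    have l : cj g W ≤ W := fun v hv => by
      obtain ⟨u, hu, rfl⟩ := mem_cj_iff.1 hv
      obtain ⟨a, ha, rfl⟩ := C.sur u hu
      rw [h.2 a ha]; exact C.mem _
    obtain ⟨v, hv, e⟩ := mem_cj_iff.1 ((cj_eq_self.2 (mem_norm_of_cj_le l)).ge (C.mem z))
    obtain ⟨a, ha, rfl⟩ := C.sur v hv
    exact ⟨a, ha, e⟩
  refine mem_cent.2 fun v hv => ?_
  obtain ⟨z, hz, rfl⟩ := C.sur v hv
  obtain ⟨w, hw, e⟩ := nW z hz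
  have e' := (h'.2 w hw).trans (h.2 w hw).symm
  rw [← e]
  calc g * co w * g⁻¹ * (x * g⁻¹) = x * co w * x⁻¹ * (x * g⁻¹) := by rw [e']
    _ = _ := by group

theorem norm (h : Act co g A) : g ∈ 𝐍 W := mem_norm_of_cj_le fun v hv => by
  obtain ⟨u, hu, rfl⟩ := mem_cj_iff.1 hv
  obtain ⟨a, ha, rfl⟩ := C.sur u hu
  rw [h.2 a ha]; exact C.mem _

/-- the subgroup of a mask -/
def Sm (μ : ℕ) : Subgroup X where
  carrier := {w | ∃ z < 256, z &&& μ = 0 ∧ co z = w}
  one_mem' := ⟨0, by decide, Nat.zero_and _, C.zero⟩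
  mul_mem' := by
    rintro _ _ ⟨a, ha, ea, rfl⟩ ⟨b, hb, eb, rfl⟩
    exact ⟨a ^^^ b, Nat.xor_lt_two_pow (n := 8) ha hb, by rw [Nat.and_xor_distrib_right, ea, eb]; rfl, C.xor a b⟩
  inv_mem' := by
    rintro _ ⟨a, ha, ea, rfl⟩
    exact ⟨a, ha, ea, eq_inv_of_mul_eq_one_left (C.sq a)⟩

theorem mem_Sm : x ∈ C.Sm μ ↔ ∃ z < 256, z &&& μ = 0 ∧ co z = x := Iff.rfl

theorem co_Sm (hz : z < 256) : co z ∈ C.Sm μ ↔ z &&& μ = 0 :=
  ⟨fun ⟨_, hw, e, k⟩ => C.eq hw hz k ▸ e, fun e => ⟨z, hz, e, rfl⟩⟩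

theorem Sm_le : C.Sm μ ≤ W := by rintro _ ⟨a, -, -, rfl⟩; exact C.mem a

theorem cj_le (h : Act co g M) (k : mp M μ ν = true) : cj g (C.Sm μ) ≤ C.Sm ν := fun v hv => by
  obtain ⟨_, ⟨a, ha, ea, rfl⟩, rfl⟩ := mem_cj_iff.1 hv
  simp only [mp, List.all_eq_true, List.mem_range, Bool.or_eq_true, Bool.not_eq_true', beq_eq_false_iff_ne,
    beq_iff_eq] at k
  rw [h.2 a ha]
  exact ⟨_, h.1 a, (k a ha).resolve_left fun n => n ea, rfl⟩

theorem nm (h : Act co g M) (k : mp M μ μ = true) : g ∈ 𝐍 (C.Sm μ) := mem_norm_of_cj_le (C.cj_le h k)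

theorem sw (h : Act co g M) (k : mp M μ ν = true) (k' : mp M ν μ = true) :
    cj g (C.Sm μ) = C.Sm ν ∧ cj g (C.Sm ν) = C.Sm μ := by
  have l := C.cj_le h k
  have l' := C.cj_le h k'
  have c := card_le_of_le l
  have c' := card_le_of_le l'
  rw [card_cj] at c c'
  exact ⟨eq_of_le_of_card_ge l (by rwa [card_cj]), eq_of_le_of_card_ge l' (by rwa [card_cj])⟩

/-- the matrix of an element centralizing the second block and normalizing the first one -/
theorem xi (n1 : g ∈ 𝐍 (C.Sm 204)) (c : g ∈ 𝐂 (C.Sm 51)) :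
    ∃ a < 16, ∃ b < 16, ∃ c < 16, ∃ d < 16, Act co g (emb a b c d) := by
  have k1 : ∀ z < 256, z &&& 204 = 0 → ∃ a < 16, g * co z * g⁻¹ = co (ex a) := fun z hz e => by
    obtain ⟨w, hw, ew, k⟩ := conj_mem_of_norm n1 ((C.co_Sm hz).2 e)
    obtain ⟨a, ha, rfl⟩ := ex_of w hw ew
    exact ⟨a, ha, k.symm⟩
  have k2 : ∀ z < 256, z &&& 51 = 0 → g * co z * g⁻¹ = co z := fun z hz e => by
    rw [← mem_cent.1 c _ ((C.co_Sm hz).2 e)]; group
  obtain ⟨a, ha, ea⟩ := k1 1 (by decide) (by decide)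
  obtain ⟨b, hb, eb⟩ := k1 2 (by decide) (by decide)
  obtain ⟨c, hc, ec⟩ := k1 16 (by decide) (by decide)
  obtain ⟨d, hd, ed⟩ := k1 32 (by decide) (by decide)
  refine ⟨a, ha, b, hb, c, hc, d, hd, C.act_of ?_ (.cons ea (.cons eb (.cons (k2 4 (by decide) (by decide))
    (.cons (k2 8 (by decide) (by decide)) (.cons ec (.cons ed (.cons (k2 64 (by decide) (by decide))
    (.cons (k2 128 (by decide) (by decide)) .nil))))))))⟩
  have := ex_lt ha; have := ex_lt hb; have := ex_lt hc; have := ex_lt hd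
  simp only [emb, List.mem_cons, List.not_mem_nil, or_false]
  rintro _ (rfl | rfl | rfl | rfl | rfl | rfl | rfl | rfl) <;> first | assumption | decide

theorem nbad (aT : Act co t T8) (ok : ∀ y Y, Act co y Y → ⁅y, t⁆ ∈ 𝐂 W → okq Y = true) (h : Act co y Y) :
    bad Y ≠ true := fun k => by
  simp only [bad, Bool.and_eq_true, beq_iff_eq, Bool.not_eq_true'] at k
  have := C.same (aT.mul h) (k.1 ▸ h.mul aT)
  rw [ok y Y h (by rw [commutatorElement_def]; convert this using 1; group)] at k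
  exact absurd k.2 (by decide)

theorem leq (h : Act co g A) (h' : Act co g B) (lA : A.length = 8) (lB : B.length = 8) : A = B := by
  rw [← mul_I lA, ← mul_I lB]; exact mul_congr fun m hm => C.uq h h' (lt_I m hm)

theorem ab1 (aT : Act co t T8) (tt : t * t = 1) (ok : ∀ y Y, Act co y Y → ⁅y, t⁆ ∈ 𝐂 W → okq Y = true)
    (n1 : x ∈ 𝐍 (C.Sm 204)) (c : x ∈ 𝐂 (C.Sm 51)) (o : Odd k) (e : x ^ k ∈ 𝐂 W) (i : t * x * t⁻¹ * x ∈ 𝐂 W) :
    (Act co n N0 → x ∈ 𝐍 (C.Sm 252) ∧ x ∈ 𝐍 (C.Sm 207)) ∧ (Act co n N1 → x ∈ 𝐂 W) := by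
  obtain ⟨a, ha, b, hb, c, hc, d, hd, h⟩ := C.xi n1 c
  have ti : t⁻¹ = t := inv_eq_of_mul_eq_one_right tt
  have i' : Act co (x * (t * x)) T8 := C.congr aT (by
    have := conj_mem_of_norm (norm_le_norm_cent W (C.norm aT)) i
    rw [show t * (t * x * t⁻¹ * x) * t⁻¹ = (t * t) * (x * (t⁻¹ * x) * t⁻¹) by group, tt, one_mul, ti] at this
    rwa [ti])
  have i2 := h.mul (aT.mul h)
  have k := all4_iff chk1 ha hb hc hd
  have f : app (emb a b c d) (app T8 (ex a)) = 16 := by
    have := C.uq i2 i' (z := 1) (by decide)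
    rwa [app_mul, app_mul, app_emb1] at this
  have f' : mul (emb a b c d) (mul T8 (emb a b c d)) = mul T8 I8 :=
    (C.leq i2 i' (by rw [len_mul, len_mul]; rfl) rfl).trans (mul_I rfl).symm
  simp only [f, ck1, f', beq_self_eq_true, Bool.not_true, Bool.false_or, Bool.and_eq_true, Bool.or_eq_true,
    Bool.not_eq_true'] at k
  have p15 := (h.pw 3).pw 5
  have e60 := (C.cent (p15.pw 4)).2 k.1
  have e15 : (x ^ 3) ^ 5 ∈ 𝐂 W := by
    obtain ⟨j, rfl⟩ := o
    generalize hy : (x ^ 3) ^ 5 = y at e60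
    have e' : y ^ (2 * j + 1) ∈ 𝐂 W := by
      rw [← hy, ← pow_mul, ← pow_mul, show 3 * (5 * (2 * j + 1)) = (2 * j + 1) * 15 by ring, pow_mul]
      exact pow_mem e _
    have := mul_mem (pow_mem e' (2 * j + 1)) (inv_mem (pow_mem e60 (j * j + j)))
    rwa [← pow_mul, ← pow_mul, show (2 * j + 1) * (2 * j + 1) = 1 + 4 * (j * j + j) by ring, pow_add, pow_one,
      mul_inv_cancel_right] at this
  have k2 := k.2.resolve_left (by rw [(C.cent p15).1 e15]; decide)
  have w : ∀ N, Act co n N → bad (w1 N (emb a b c d)) ≠ true := fun N aN => C.nbad aT ok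
    ((aN.mul (h.mul aN)).mul (((aT.mul (aN.mul ((aT.mul (h.mul aT)).mul aN))).mul
      (aT.mul (aN.mul (h.mul aN)))).pw 7))
  refine ⟨fun aN => ?_, fun aN => (C.cent h).2 (k2.2.resolve_left (w _ aN))⟩
  have := k2.1.resolve_left (w _ aN)
  exact ⟨C.nm h this.1, C.nm h this.2⟩

theorem ab2 (aT : Act co t T8) (ok : ∀ y Y, Act co y Y → ⁅y, t⁆ ∈ 𝐂 W → okq Y = true)
    (aN : Act co n N0 ∨ Act co n N1) (aX : Act co x X0) (n1 : r ∈ 𝐍 (C.Sm 204)) (c : r ∈ 𝐂 (C.Sm 51))
    (cm : ⁅r, x⁆ ∈ 𝐂 W) (e : r * t * r⁻¹ * (t * x)⁻¹ ∈ 𝐂 W) :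
    r ∈ 𝐍 (C.Sm 252) ∧ r ∈ 𝐍 (C.Sm 207) ∨ cj r (C.Sm 252) = C.Sm 207 ∧ cj r (C.Sm 207) = C.Sm 252 := by
  obtain ⟨a, ha, b, hb, c, hc, d, hd, h⟩ := C.xi n1 c
  have i1 : Act co (r * t) (mul T8 (mul X0 (emb a b c d))) :=
    C.congr (aT.mul (aX.mul h)) (by convert e using 1; group)
  have i2 : Act co (r * x) (mul X0 (emb a b c d)) :=
    C.congr (aX.mul h) (by rw [commutatorElement_def] at cm; convert cm using 1; group)
  have k := all4_iff chk2 ha hc hb hd
  have f : ex c = app T8 (app X0 (ex a)) := by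
    have := C.uq (h.mul aT) i1 (z := 1) (by decide)
    rwa [app_mul, app_mul, app_mul, app_emb1, show app T8 1 = 16 from rfl, app_emb16] at this
  have f1 := C.leq (h.mul aT) i1 (by rw [len_mul]; rfl) (by rw [len_mul, len_mul]; rfl)
  have f2 := C.leq (h.mul aX) i2 (by rw [len_mul]; rfl) (by rw [len_mul]; rfl)
  have f3 : ((List.range 256).all fun z => z == 0 || !(app (emb a b c d) z == 0)) = true := by
    simp only [List.all_eq_true, List.mem_range, Bool.or_eq_true, beq_iff_eq, Bool.not_eq_true', beq_eq_false_iff_ne]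
    refine fun z hz => or_iff_not_imp_right.2 fun k => C.inj z hz ?_
    have := h.2 z hz
    rw [not_not.1 k, C.zero] at this
    simpa using this
  simp only [← f, ck2, f1, f2, f3, beq_self_eq_true, Bool.not_true, Bool.false_or, Bool.and_eq_true,
    Bool.or_eq_true] at k
  have w : ∀ N, Act co n N → bad (w2 N (emb a b c d)) ≠ true := fun N aN => C.nbad aT ok
    ((aT.mul ((h.pw 3).mul (aN.mul (h.pw 3)))).mul (aT.mul (h.mul (aN.mul h))))
  rcases k with (k | k) | k
  · exact .inl ⟨C.nm h k.1, C.nm h k.2⟩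
  · exact .inr (C.sw h k.1 k.2)
  · exact (aN.elim (fun a => w _ a k.1) fun a => w _ a k.2).elim

end Co

end CF.Ub.Mo
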